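import Mathlib
import Cfsg.Agent.Lib.Helper60.SUG.Defs
import Cfsg.Agent.Lib.Helper13.UTransvComm

/-!
# Project SUG (S2412): package [LINE] (helper47), with [CONJ] and [SMUL] proved on the way

The centres of a subgroup `K` of `SU_n(q)` are `K`-stable, stable under nonzero scalars, and
closed under hyperbolic lines.
-/

set_option autoImplicit false

namespace Cfsg.Agent.Lib.Helper47.SUG

open Matrix Cfsg.Agent.Lib.Helper60.SUG Cfsg.Agent.Lib.Helper45 Cfsg.Agent.Lib.Helper44
open Cfsg.Agent.Lib.Helper13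

universe u

section

variable {F : Type u} [Field F] [Fintype F] {q n : ℕ}

theorem mat_mul (g h : ↥(Cfsg.SU n F q)) : mat (g * h) = mat g * mat h := rfl

theorem mat_one : mat (1 : ↥(Cfsg.SU n F q)) = 1 := rfl

theorem mat_inv_mul (g : ↥(Cfsg.SU n F q)) : mat g⁻¹ * mat g = 1 := by
  rw [← mat_mul, inv_mul_cancel]
  rfl

theorem mat_mul_inv (g : ↥(Cfsg.SU n F q)) : mat g * mat g⁻¹ = 1 := by
  rw [← mat_mul, mul_inv_cancel]
  rfl

theorem mat_isHermIso (g : ↥(Cfsg.SU n F q)) : IsHermIso n F q (mat g) := g.2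

/-- the centres of `K` are `K`-stable -/
theorem ctr_conj (K : Subgroup ↥(Cfsg.SU n F q)) (v : Fin n → F)
    (hv : Ctr K v) (g : ↥(Cfsg.SU n F q)) (hg : g ∈ K) : Ctr K (mat g *ᵥ v) := by
  obtain ⟨hv0, hvv, hK⟩ := hv
  refine ⟨?_, ?_, ?_⟩
  · intro h0
    apply hv0
    have h1 : mat g⁻¹ *ᵥ (mat g *ᵥ v) = v := by
      rw [Matrix.mulVec_mulVec, mat_inv_mul, Matrix.one_mulVec]
    rw [← h1, h0, Matrix.mulVec_zero]
  · rw [mat_isHermIso g v v]
    exact hvv
  · intro g' c hc hg'
    have ht : mat (g⁻¹ * g' * g) = Cfsg.unitaryTransvection n q v c := by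
      rw [mat_mul, mat_mul, hg', Matrix.mul_assoc, ← utransv_conj (mat_isHermIso g) v c,
        ← Matrix.mul_assoc, mat_inv_mul, Matrix.one_mul]
    have h1 := hK _ c hc ht
    have h2 : g' = g * (g⁻¹ * g' * g) * g⁻¹ := by group
    rw [h2]
    exact K.mul_mem (K.mul_mem hg h1) (K.inv_mem hg)

/-- the centres of `K` are stable under nonzero scalars -/
theorem ctr_smul (hF : Fintype.card F = q ^ 2) (K : Subgroup ↥(Cfsg.SU n F q)) (v : Fin n → F)
    (hv : Ctr K v) (a : F) (ha : a ≠ 0) : Ctr K (a • v) := by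
  obtain ⟨hv0, hvv, hK⟩ := hv
  refine ⟨smul_ne_zero ha hv0, ?_, ?_⟩
  · rw [herm_smul_left, herm_smul_right, hvv, mul_zero, mul_zero]
  · intro g' c hc hg'
    rw [utransv_smul] at hg'
    refine hK g' (a ^ (q + 1) * c) ?_ hg'
    have h1 : (a ^ (q + 1)) ^ q = a ^ (q + 1) := by
      rw [pow_succ, mul_pow, conj_conj hF, mul_comm]
    rw [mul_pow, hc, h1]
    ring

end

/-- [CONJ] -/
theorem pkgConj : PkgConj.{u} := by
  intro F _ _ q n _ K v hv g hg
  exact ctr_conj K v hv g hg

/-- [SMUL] -/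
theorem pkgSmul : PkgSmul.{u} := by
  intro F _ _ q n hF K v hv a ha
  exact ctr_smul hF K v hv a ha

/-- [LINE] -/
theorem pkgLine : PkgLine.{u} := by
  intro F _ _ q n hF K e f he hf hef a b hne hiso
  by_cases ha : a = 0
  · subst ha
    rw [zero_smul, zero_add] at hne ⊢
    have hb : b ≠ 0 := by
      rintro rfl
      exact hne (zero_smul _ _)
    exact ctr_smul hF K f hf b hb
  · have hee := he.2.1
    have hff := hf.2.1
    have hfe : Cfsg.hermForm n F q f e = Cfsg.hermForm n F q e f ^ q := (herm_conj hF n e f).symm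
    have hexp : a * b ^ q * Cfsg.hermForm n F q e f +
        b * a ^ q * Cfsg.hermForm n F q e f ^ q = 0 := by
      have h1 := hiso
      simp only [herm_add_left, herm_add_right hF, herm_smul_left, herm_smul_right, hee, hff,
        hfe] at h1
      linear_combination h1
    obtain ⟨c, hc⟩ : ∃ c : F, c = b / (a * Cfsg.hermForm n F q e f) := ⟨_, rfl⟩
    have hcq : c ^ q = -c := by
      have haq : a ^ q ≠ 0 := pow_ne_zero _ ha
      have hηq : Cfsg.hermForm n F q e f ^ q ≠ 0 := pow_ne_zero _ hef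
      rw [hc, div_pow, mul_pow]
      field_simp
      linear_combination hexp
    obtain ⟨t, ht⟩ : ∃ t : ↥(Cfsg.SU n F q), t = suMk (Cfsg.unitaryTransvection n q f c)
        (det_utransv f c hff) (isHermIso_utransv hF f c hff hcq) := ⟨_, rfl⟩
    have hmt : mat t = Cfsg.unitaryTransvection n q f c := by
      rw [ht]
      rfl
    have htK : t ∈ K := hf.2.2 t c hcq hmt
    have h1 := ctr_conj K e he t htK
    have h2 := ctr_smul hF K _ h1 a ha
    have h3 : a • (mat t *ᵥ e) = a • e + b • f := by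
      rw [hmt, utransv_mulVec, smul_add, smul_smul]
      congr 2
      rw [hc]
      field_simp
    rw [← h3]
    exact h2

end Cfsg.Agent.Lib.Helper47.SUG
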