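import Mathlib
import Cfsg.Agent.Lib.Helper60.SUG.Defs
import Cfsg.Agent.Lib.Helper13.UTransvComm
import Cfsg.Agent.Lib.Helper47.SUG.Line

/-!
# Project SUG (S2412): package [FILL] (helper47)

A single transvection `T_{v,c₀} ∈ K`, `c₀ ≠ 0`, and `s ∈ K` with `s v = μ v` such that the powers
of `μ ^ (q + 1)` span the fixed field of `x ↦ x ^ q` additively, make `v` a centre of `K`.
-/

set_option autoImplicit false

namespace Cfsg.Agent.Lib.Helper47.SUG

open Matrix Cfsg.Agent.Lib.Helper60.SUG Cfsg.Agent.Lib.Helper45 Cfsg.Agent.Lib.Helper44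
open Cfsg.Agent.Lib.Helper13

universe u

section

variable {F : Type u} [Field F] [Fintype F] {q n : ℕ}

theorem mat_pow_mulVec (s : ↥(Cfsg.SU n F q)) (v : Fin n → F) (μ : F)
    (hs : mat s *ᵥ v = μ • v) (j : ℕ) : mat (s ^ j) *ᵥ v = μ ^ j • v := by
  induction j with
  | zero => rw [pow_zero, pow_zero, one_smul, mat_one, Matrix.one_mulVec]
  | succ j ih =>
    rw [pow_succ, mat_mul, ← Matrix.mulVec_mulVec, hs, Matrix.mulVec_smul, ih, smul_smul,
      pow_succ, mul_comm]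

theorem utransv_zero' (v : Fin n → F) : Cfsg.unitaryTransvection n q v 0 = 1 := by
  rw [utransv_eq, zero_smul, add_zero]

end

/-- [FILL] -/
theorem pkgFill : PkgFill.{u} := by
  intro F _ _ q n hF K v hv0 hvv g₀ c₀ hg₀ hc₀ hc₀q hmg₀ s μ hs hsv hspan
  refine ⟨hv0, hvv, ?_⟩
  intro g c hc hmg
  -- the parameters reached
  have hP : ∀ y ∈ AddSubmonoid.closure (Set.range fun j : ℕ => (μ ^ (q + 1)) ^ j),
      ∃ g' ∈ K, mat g' = Cfsg.unitaryTransvection n q v (y * c₀) := by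
    intro y hy
    induction hy using AddSubmonoid.closure_induction with
    | mem y hy =>
      obtain ⟨j, rfl⟩ := hy
      refine ⟨s ^ j * g₀ * (s ^ j)⁻¹, K.mul_mem (K.mul_mem (K.pow_mem hs j) hg₀)
        (K.inv_mem (K.pow_mem hs j)), ?_⟩
      rw [mat_mul, mat_mul, hmg₀, utransv_conj (mat_isHermIso (s ^ j)) v c₀, Matrix.mul_assoc,
        mat_mul_inv, Matrix.mul_one, mat_pow_mulVec s v μ hsv j, utransv_smul]
      congr 1
      ring
    | zero =>
      exact ⟨1, K.one_mem, by rw [zero_mul, utransv_zero', mat_one]⟩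
    | add y₁ y₂ _ _ ih₁ ih₂ =>
      obtain ⟨g₁, hg₁, hm₁⟩ := ih₁
      obtain ⟨g₂, hg₂, hm₂⟩ := ih₂
      refine ⟨g₁ * g₂, K.mul_mem hg₁ hg₂, ?_⟩
      rw [mat_mul, hm₁, hm₂, utransv_mul v _ _ hvv, add_mul]
  have hc₀q' : c₀ ^ q ≠ 0 := pow_ne_zero _ hc₀
  have hx : (c / c₀) ^ q = c / c₀ := by
    rw [div_pow, hc, hc₀q, neg_div_neg_eq]
  obtain ⟨g', hg', hm'⟩ := hP (c / c₀) (hspan _ hx)
  rw [div_mul_cancel₀ c hc₀] at hm'
  have hgg : g = g' := su_ext g g' (by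
    show mat g = mat g'
    rw [hmg, hm'])
  rw [hgg]
  exact hg'

end Cfsg.Agent.Lib.Helper47.SUG
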